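import Cfsg.Agent.Lib.CoprimeAction.Basic
import Cfsg.Agent.Lib.Cores.Basic
import Cfsg.Agent.Lib.PGroups.Extraspecial
import Cfsg.Agent.Lib.PGroups.Omega
import Cfsg.Prelude.Def_Transfer

/-!
A minimal group on which a coprime operator group acts nontrivially (Kurzweil-Stellmacher 8.5.1).
-/

set_option autoImplicit false

open scoped commutatorElement

namespace CfsgLib.MinimalAction

open Cfsg

variable {X : Type*} [Group X] [Finite X]

/-- If `[P, A] = P` coprimely, the fixed points lie in the derived subgroup. -/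
theorem inf_centralizer_le_commutator {A P : Subgroup X}
    (hAP : A ≤ Subgroup.normalizer (P : Set X)) (hcop : (Nat.card A).Coprime (Nat.card P))
    (hPA : ⁅P, A⁆ = P) : P ⊓ Subgroup.centralizer (A : Set X) ≤ ⁅P, P⁆ := by
  classical
  have : Fintype A := Fintype.ofFinite _
  let conjA : A → P →* P := fun a => ((P.normalizerMonoidHom ⟨a, hAP a.2⟩ : P ≃* P)).toMonoidHom
  have hconj : ∀ (a : A) (x : P), ((conjA a x : P) : X) = (a : X) * x * (a : X)⁻¹ := fun a x => rfl
  let mk : P →* Abelianization P := Abelianization.of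
  let T : P →* Abelianization P :=
    { toFun := fun x => ∏ a : A, mk (conjA a x)
      map_one' := by simp
      map_mul' := fun x y => by simp [Finset.prod_mul_distrib] }
  have hT : ∀ (b : A) (x : P), T (conjA b x) = T x := by
    intro b x
    refine Fintype.prod_equiv (Equiv.mulRight b) _ _ fun a => ?_
    congr 1
    apply Subtype.ext
    simp [hconj, mul_assoc]
  have hker : T.ker.map P.subtype = P := by
    refine le_antisymm (Subgroup.map_subtype_le _) ?_
    conv_lhs => rw [← hPA]
    refine Subgroup.commutator_le.mpr fun x hx a ha => ?_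
    refine ⟨(⟨x, hx⟩ : P) * conjA ⟨a, ha⟩ (⟨x, hx⟩ : P)⁻¹, ?_, ?_⟩
    · show T _ = 1
      rw [map_mul, hT, map_inv, mul_inv_cancel]
    · simp [hconj, commutatorElement_def, mul_assoc]
  intro c hc
  have hcT : T ⟨c, hc.1⟩ = 1 := by
    obtain ⟨d, hd, hdc⟩ := hker.ge hc.1
    have : d = ⟨c, hc.1⟩ := Subtype.ext hdc
    exact this ▸ hd
  have hfix : ∀ a : A, conjA a ⟨c, hc.1⟩ = ⟨c, hc.1⟩ := fun a => Subtype.ext (by
    rw [hconj, Subgroup.mem_centralizer_iff.mp hc.2 a a.2, mul_inv_cancel_right])
  have hpow : mk ⟨c, hc.1⟩ ^ Nat.card A = 1 := by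
    rw [← hcT]
    show _ = ∏ a : A, mk (conjA a ⟨c, hc.1⟩)
    simp [hfix, Nat.card_eq_fintype_card]
  have h1 : orderOf (mk ⟨c, hc.1⟩) = 1 :=
    Nat.eq_one_of_dvd_coprimes hcop (orderOf_dvd_of_pow_eq_one hpow)
      ((orderOf_map_dvd mk ⟨c, hc.1⟩).trans (orderOf_dvd_natCard _))
  rw [orderOf_eq_one_iff] at h1
  have hmem : (⟨c, hc.1⟩ : P) ∈ commutator P := (QuotientGroup.eq_one_iff _).mp h1
  have := Subgroup.mem_map_of_mem P.subtype hmem
  rwa [commutator_def, Subgroup.map_commutator, ← MonoidHom.range_eq_map, Subgroup.range_subtype] at this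

omit [Finite X] in
theorem le_centralizer_of_commutator_eq_bot {U A : Subgroup X} (h : ⁅U, A⁆ = ⊥) :
    U ≤ Subgroup.centralizer (A : Set X) :=
  Subgroup.commutator_eq_bot_iff_le_centralizer.mp h

/-- The structure of a minimal group with nontrivial coprime action. -/
theorem minimal_action {p : ℕ} [Fact p.Prime] (B A P : Subgroup X) (hP : IsPGroup p P)
    (hBP : B ≤ Subgroup.normalizer (P : Set X)) (hAB : A ≤ B)
    (hAn : B ≤ Subgroup.normalizer (A : Set X)) (hAp : (Nat.card A).Coprime p)
    (hnt : ⁅P, A⁆ ≠ ⊥)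
    (hmin : ∀ U : Subgroup X, U < P → B ≤ Subgroup.normalizer (U : Set X) → ⁅U, A⁆ = ⊥) :
    ⁅P, A⁆ = P ∧ (Cfsg.IsElementaryAbelian p P ∨ Cfsg.IsSpecial p ↥P) ∧
      (∀ U : Subgroup X, (frattini ↥P).map P.subtype ≤ U → U ≤ P →
        B ≤ Subgroup.normalizer (U : Set X) → U = (frattini ↥P).map P.subtype ∨ U = P) ∧
      (p ≠ 2 → ∀ x ∈ P, x ^ p = 1) := by
  have hcop : (Nat.card A).Coprime (Nat.card P) := by
    obtain ⟨k, hk⟩ := IsPGroup.iff_card.mp hP
    exact hk ▸ hAp.pow_right k
  have hAP : A ≤ Subgroup.normalizer (P : Set X) := hAB.trans hBP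
  have : Group.IsNilpotent P := hP.isNilpotent
  have hsolv : Group.IsSolvable A ∨ Group.IsSolvable P := Or.inr inferInstance
  have hPA : ⁅P, A⁆ = P := by
    by_contra hne
    apply hnt
    rw [← CoprimeAction.commutator_commutator_eq hAP hcop hsolv]
    refine hmin _ (lt_of_le_of_ne (CoprimeAction.commutator_le_left hAP) hne) fun b hb => ?_
    rw [Subgroup.mem_normalizer_iff_map_conj_eq]
    erw [Subgroup.map_commutator, Subgroup.mem_normalizer_iff_map_conj_eq.mp (hBP hb),
      Subgroup.mem_normalizer_iff_map_conj_eq.mp (hAn hb)]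
  have hfix := inf_centralizer_le_commutator hAP hcop hPA
  have hP1 : P ≠ ⊥ := fun h => hnt (by rw [h, Subgroup.commutator_bot_left])
  set Φ := (frattini P).map P.subtype with hΦ
  have hBΦ : B ≤ Subgroup.normalizer (Φ : Set X) :=
    hBP.trans (Cores.normalizer_le_normalizer_map_subtype P (frattini P))
  have hΦlt : Φ < P := by
    refine lt_of_le_of_ne (Subgroup.map_subtype_le _) fun he => hP1 ?_
    have htop : frattini P = ⊤ := Subgroup.map_injective P.subtype_injective
      (by rw [← hΦ, he, ← MonoidHom.range_eq_map, Subgroup.range_subtype])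
    have hbt : (⊥ : Subgroup P) = ⊤ := frattini_nongenerating (by rw [htop, sup_top_eq])
    have := congrArg (Subgroup.map P.subtype) hbt
    rw [Subgroup.map_bot, ← MonoidHom.range_eq_map, Subgroup.range_subtype] at this
    exact this.symm
  have hAΦ : ⁅Φ, A⁆ = ⊥ := hmin Φ hΦlt hBΦ
  have hΦn : ⁅Φ, P⁆ ≤ Φ :=
    CoprimeAction.commutator_le_left
      (Subgroup.le_normalizer.trans (Cores.normalizer_le_normalizer_map_subtype P (frattini P)))
  have hΦP : ⁅P, Φ⁆ = ⊥ := by
    have h := Subgroup.commutator_commutator_eq_bot_of_rotate (H₁ := P) (H₂ := A) (H₃ := Φ)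
      (by rw [Subgroup.commutator_comm A Φ, hAΦ, Subgroup.commutator_bot_left])
      (le_bot_iff.mp (hAΦ ▸ Subgroup.commutator_mono hΦn le_rfl))
    rwa [hPA] at h
  have hΦc : frattini P ≤ Subgroup.center P := by
    intro z hz
    rw [Subgroup.mem_center_iff]
    intro g
    have h1 := Subgroup.commutator_eq_bot_iff_le_centralizer.mp hΦP g.2
    exact Subtype.ext (Subgroup.mem_centralizer_iff.mp h1 z ⟨z, hz, rfl⟩).symm
  have hcomm : commutator P ≤ frattini P := PGroups.commutator_le_frattini hP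
  have hDΦ : ⁅P, P⁆ ≤ Φ := by
    have := Subgroup.map_mono (f := P.subtype) hcomm
    rwa [commutator_def, Subgroup.map_commutator, ← MonoidHom.range_eq_map,
      Subgroup.range_subtype] at this
  have hfixΦ : ∀ x ∈ Φ, ∀ a ∈ A, a * x = x * a := fun x hx a ha =>
    Subgroup.mem_centralizer_iff.mp (le_centralizer_of_commutator_eq_bot hAΦ hx) a ha
  have hspec : Cfsg.IsElementaryAbelian p P ∨ Cfsg.IsSpecial p P := by
    by_cases hc : IsMulCommutative P
    · left
      refine ⟨hc, fun x hx => ?_⟩
      have hbot : ⁅P, P⁆ = ⊥ := (Subgroup.commutator_self_eq_bot_iff (H := P)).mpr hc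
      have hΦbot : Φ = ⊥ := by
        rw [eq_bot_iff, ← hbot]
        exact le_trans (le_inf (Subgroup.map_subtype_le _)
          (le_centralizer_of_commutator_eq_bot hAΦ)) hfix
      have h2 : frattini P = ⊥ := (Subgroup.map_eq_bot_iff_of_injective _ P.subtype_injective).mp hΦbot
      have h3 := ((PGroups.frattini_eq_bot_iff hP).mp h2).2 ⟨x, hx⟩
      exact congrArg Subtype.val h3
    · right
      have hZlt : (Subgroup.center P).map P.subtype < P := by
        refine lt_of_le_of_ne (Subgroup.map_subtype_le _) fun he => hc ?_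
        refine isMulCommutative_iff.mpr fun a b => ?_
        have htop : Subgroup.center P = ⊤ := Subgroup.map_injective P.subtype_injective
          (by rw [he, ← MonoidHom.range_eq_map, Subgroup.range_subtype])
        exact Subgroup.mem_center_iff.mp (htop ▸ Subgroup.mem_top b) a
      have hZA := hmin _ hZlt (hBP.trans (Cores.normalizer_le_normalizer_map_subtype P _))
      have hZD : Subgroup.center P ≤ commutator P := by
        have h1 := (le_inf (Subgroup.map_subtype_le _)
          (le_centralizer_of_commutator_eq_bot hZA)).trans hfix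
        rwa [← Subgroup.map_subtype_commutator, Subgroup.map_subtype_le_map_subtype] at h1
      exact ⟨hP, le_antisymm hΦc (hZD.trans hcomm), le_antisymm (hcomm.trans hΦc) hZD⟩
  refine ⟨hPA, hspec, fun U hΦU hUP hBU => ?_, fun hp x hx => ?_⟩
  · rcases hUP.eq_or_lt with h | h
    · exact Or.inr h
    · left
      refine le_antisymm ?_ hΦU
      exact ((le_inf hUP (le_centralizer_of_commutator_eq_bot (hmin U h hBU))).trans hfix).trans hDΦ
  · have hexp : ∀ g ∈ commutator P, g ^ p = 1 := by
      rcases hspec with h | h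
      · exact fun g _ => Subtype.ext (h.2 g g.2)
      · exact fun g hg => (PGroups.IsSpecial.center_elementary h).2 g (hΦc (hcomm hg))
    have hcl : ⁅commutator P, (⊤ : Subgroup P)⁆ = ⊥ :=
      Subgroup.commutator_eq_bot_iff_le_centralizer.mpr fun y hy g _ =>
        Subgroup.mem_center_iff.mp (hΦc (hcomm hy)) g
    have hmul := PGroups.mul_pow_of_small_class (p := p) (G := P) (Or.inl ⟨hp, hcl⟩) hexp
    let K : P →* P :=
      { toFun := fun y => y ^ p
        map_one' := one_pow p
        map_mul' := hmul }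
    have hle : P ≤ K.ker.map P.subtype := by
      conv_lhs => rw [← hPA]
      refine Subgroup.commutator_le.mpr fun y hy a ha => ?_
      have hy' : a * y⁻¹ * a⁻¹ ∈ P :=
        (Subgroup.mem_normalizer_iff.mp (hAP ha) _).mp (P.inv_mem hy)
      refine ⟨⟨y, hy⟩ * ⟨_, hy'⟩, ?_, by simp [commutatorElement_def, mul_assoc]⟩
      rw [SetLike.mem_coe, MonoidHom.mem_ker, MonoidHom.coe_mk, OneHom.coe_mk]
      rw [hmul]
      apply Subtype.ext
      simp only [Subgroup.coe_mul, SubgroupClass.coe_pow, Subgroup.coe_one]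
      rw [← MulAut.conj_apply, ← map_pow, MulAut.conj_apply, inv_pow]
      have hyΦ : y ^ p ∈ Φ := ⟨(⟨y, hy⟩ : P) ^ p, PGroups.pow_mem_frattini hP _, rfl⟩
      rw [hfixΦ _ (Φ.inv_mem hyΦ) a ha]
      group
    obtain ⟨y, hy, rfl⟩ := hle hx
    exact congrArg Subtype.val hy

end CfsgLib.MinimalAction
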