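import Mathlib.GroupTheory.SpecificGroups.KleinFour
import Mathlib.GroupTheory.PGroup
import Mathlib.GroupTheory.Index
import Mathlib.Tactic

/-!
Zeros of the squaring map of a 2-group over a central four-group.
-/

set_option autoImplicit false

open scoped commutatorElement

namespace CfsgLib.MinimalAction

/-- The sign attached to an involution of a four-group. -/
def klSign {Z : Type*} [One Z] [DecidableEq Z] (w z : Z) : ℤ :=
  if z = 1 ∨ z = w then 1 else -1

variable {Z : Type*} [Group Z] [IsKleinFour Z] [DecidableEq Z]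

omit [IsKleinFour Z] in
theorem klSign_mul_self (w z : Z) : klSign w z * klSign w z = 1 := by
  unfold klSign; split_ifs <;> rfl

theorem klSign_mul {w : Z} (hw : w ≠ 1) (a b : Z) : klSign w (a * b) = klSign w a * klSign w b := by
  have key : ∀ a b : Z, a ≠ 1 → b ≠ 1 → a ≠ b → a * b ≠ 1 ∧ a * b ≠ a ∧ a * b ≠ b := by
    intro a b ha hb hab
    refine ⟨fun h => hab ?_, by simpa using hb, by simpa using ha⟩
    rw [← mul_left_inj b, h, IsKleinFour.mul_self]
  unfold klSign
  by_cases ha : a = 1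
  · subst ha; simp
  by_cases hb : b = 1
  · subst hb; simp
  by_cases hab : a = b
  · subst hab; rw [IsKleinFour.mul_self]; simp only [true_or, if_true]; split_ifs <;> rfl
  obtain ⟨h1, h2, h3⟩ := key a b ha hb hab
  by_cases haw : a = w
  · subst haw
    simp [ha, hb, h1, h2, Ne.symm hab]
  by_cases hbw : b = w
  · subst hbw
    simp [ha, hb, h1, h3, hab]
  have : w = a * b := IsKleinFour.eq_mul_of_ne_all ha hb hab hw (Ne.symm haw) (Ne.symm hbw)
  simp [ha, hb, haw, hbw, this.symm]

theorem sum_klSign [Fintype Z] (z : Z) :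
    1 + ∑ w ∈ Finset.univ.erase 1, klSign w z = if z = 1 then 4 else 0 := by
  have h4 : Fintype.card Z = 4 := by rw [← Nat.card_eq_fintype_card, IsKleinFour.card_four]
  have he : (Finset.univ.erase (1 : Z)).card = 3 := by
    rw [Finset.card_erase_of_mem (Finset.mem_univ _), Finset.card_univ, h4]
  by_cases hz : z = 1
  · subst hz
    simp [klSign, he]
  · rw [if_neg hz]
    have hmem : z ∈ Finset.univ.erase (1 : Z) := Finset.mem_erase.mpr ⟨hz, Finset.mem_univ _⟩
    rw [← Finset.add_sum_erase _ _ hmem]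
    have : ∀ w ∈ (Finset.univ.erase (1 : Z)).erase z, klSign w z = -1 := by
      intro w hw
      simp only [Finset.mem_erase] at hw
      simp [klSign, hz, Ne.symm hw.1]
    rw [Finset.sum_congr rfl this, Finset.sum_const, Finset.card_erase_of_mem hmem, he]
    simp [klSign]

omit [IsKleinFour Z] in
theorem sum_sign_hom {V : Type*} [Group V] [Fintype V] (f : V → ℤ) (hf : ∀ x y, f (x * y) = f x * f y)
    (h1 : ∀ x, f x * f x = 1) : (∑ x, f x) = 0 ∨ (∑ x, f x) = (Fintype.card V : ℤ) := by
  by_cases h : ∀ x, f x = 1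
  · right; simp [h]
  · left
    push Not at h
    obtain ⟨a, ha⟩ := h
    have hperm : (∑ x, f x) = f a * ∑ x, f x := by
      rw [Finset.mul_sum]
      exact (Fintype.sum_equiv (Equiv.mulLeft a) _ _ fun x => by simp [hf]).symm
    rcases Int.eq_one_or_neg_one_of_mul_eq_one (h1 a) with h' | h'
    · exact absurd h' ha
    · rw [h'] at hperm; omega

/-- The square of the signed count is divisible by the order. -/
theorem card_dvd_sq {V : Type*} [Group V] [Fintype V] (q : V → Z)
    (hB : ∀ x y u : V, q (x * y * u) * q (x * y) * q u =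
      (q (x * u) * q x * q u) * (q (y * u) * q y * q u))
    {w : Z} (hw : w ≠ 1) : (Fintype.card V : ℤ) ∣ (∑ x, klSign w (q x)) ^ 2 := by
  set s : V → ℤ := fun x => klSign w (q x) with hs
  have hdouble : ∀ x u : V, s x * s (x * u) = s u * (s (x * u) * s x * s u) := by
    intro x u
    have := klSign_mul_self w (q u)
    calc s x * s (x * u) = s x * s (x * u) * (s u * s u) := by rw [this, mul_one]
      _ = _ := by ring
  have hS : (∑ x, s x) ^ 2 = ∑ u, s u * ∑ x, (s (x * u) * s x * s u) := by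
    rw [pow_two, Finset.sum_mul_sum]
    simp_rw [Finset.mul_sum]
    rw [Finset.sum_comm (s := (Finset.univ : Finset V)) (t := (Finset.univ : Finset V))
      (f := fun u x => s u * (s (x * u) * s x * s u))]
    refine Finset.sum_congr rfl fun x _ => ?_
    refine (Fintype.sum_equiv (Equiv.mulLeft x) _ _ fun u => ?_).symm
    simp only [Equiv.coe_mulLeft]
    exact (hdouble x u).symm
  rw [hS]
  refine Finset.dvd_sum fun u _ => dvd_mul_of_dvd_right ?_ _
  rcases sum_sign_hom (fun x => s (x * u) * s x * s u) (fun x y => by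
      simp only [hs, ← klSign_mul hw]
      rw [hB x y u]) (fun x => by
      simp only [hs, ← klSign_mul hw, IsKleinFour.mul_self]
      simp [klSign]) with h | h <;> simp [h]

omit [DecidableEq Z] in
/-- A quadratic map to a four-group on `2 ^ n` points with `9 ∣ 2 ^ n - 1` has a nontrivial zero. -/
theorem exists_zero {V : Type*} [Group V] [Finite V] [Nontrivial V] (hV : ∀ v : V, v * v = 1)
    (q : V → Z) (hq1 : q 1 = 1) (hB : ∀ x y u : V, q (x * y * u) * q (x * y) * q u =
      (q (x * u) * q x * q u) * (q (y * u) * q y * q u))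
    (h9 : 9 ∣ Nat.card V - 1) : ∃ v : V, v ≠ 1 ∧ q v = 1 := by
  classical
  have : Fintype V := Fintype.ofFinite _
  have : Finite Z := Nat.finite_of_card_ne_zero (by rw [IsKleinFour.card_four]; norm_num)
  have : Fintype Z := Fintype.ofFinite _
  by_contra hcon
  push Not at hcon
  have hp : IsPGroup 2 V := fun v => ⟨1, by rw [pow_one, pow_two, hV]⟩
  obtain ⟨n, hn⟩ := IsPGroup.iff_card.mp hp
  rw [Nat.card_eq_fintype_card] at hn h9
  have hn6 : 5 ≤ n := by
    by_contra h
    have h1 : Fintype.card V ≠ 1 := fun h1 => by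
      have := Fintype.one_lt_card (α := V); omega
    rw [hn] at h1 h9
    interval_cases n <;> first | omega | (norm_num at h1) | (norm_num at h9)
  have hdvd : ∀ w ∈ (Finset.univ.erase (1 : Z)), (8 : ℤ) ∣ ∑ x, klSign w (q x) := by
    intro w hw
    have h := card_dvd_sq q hB (Finset.mem_erase.mp hw).1
    rw [hn] at h
    set S := ∑ x, klSign w (q x)
    have h32 : (32 : ℤ) ∣ S ^ 2 := dvd_trans (by
      push_cast
      exact pow_dvd_pow (2 : ℤ) hn6) h
    have h32' : 32 ∣ S.natAbs ^ 2 := by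
      have := Int.natAbs_dvd_natAbs.mpr h32
      simpa [Int.natAbs_pow] using this
    have : 8 ∣ S.natAbs := by
      obtain ⟨k, hk⟩ := h32'
      obtain ⟨c, m, hm, hcm⟩ : ∃ c m, m < 8 ∧ S.natAbs = 8 * c + m :=
        ⟨S.natAbs / 8, S.natAbs % 8, Nat.mod_lt _ (by norm_num), (Nat.div_add_mod _ _).symm⟩
      rw [hcm] at hk ⊢
      interval_cases m <;> ring_nf at hk <;> omega
    exact Int.natCast_dvd.mpr this
  have htot : (Fintype.card V : ℤ) + ∑ w ∈ (Finset.univ.erase (1 : Z)), ∑ x, klSign w (q x) = 4 := by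
    rw [Finset.sum_comm]
    have : (Fintype.card V : ℤ) = ∑ _x : V, (1 : ℤ) := by simp
    rw [this, ← Finset.sum_add_distrib]
    simp_rw [sum_klSign]
    rw [Finset.sum_eq_single_of_mem 1 (Finset.mem_univ _) fun v _ hv => if_neg (hcon v hv)]
    simp [hq1]
  have h8 : (8 : ℤ) ∣ ∑ w ∈ (Finset.univ.erase (1 : Z)), ∑ x, klSign w (q x) := Finset.dvd_sum hdvd
  have h8' : (8 : ℤ) ∣ (Fintype.card V : ℤ) := by
    rw [hn]; push_cast; exact pow_dvd_pow (2 : ℤ) (by omega : 3 ≤ n)
  have := dvd_add h8' h8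
  rw [htot] at this
  norm_num at this

variable {R : Type*} [Group R]

/-- A group with squares in a central four-group whose quotient order is `1` modulo `9` has an
involution outside it. -/
theorem exists_sq_eq_one [Finite R] (C : Subgroup R) [C.Normal] (hC : C ≤ Subgroup.center R)
    (hC4 : Nat.card C = 4) (hCe : ∀ z ∈ C, z ^ 2 = 1) (hsq : ∀ x : R, x ^ 2 ∈ C)
    (h9 : 9 ∣ C.index - 1) (htop : C ≠ ⊤) : ∃ x : R, x ∉ C ∧ x ^ 2 = 1 := by
  classical
  have hex : Monoid.exponent C = 2 := by
    have hd : Monoid.exponent C ∣ 2 := Monoid.exponent_dvd_of_forall_pow_eq_one fun z =>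
      Subtype.ext (hCe z z.2)
    rcases (Nat.dvd_prime Nat.prime_two).mp hd with h | h
    · have hs : Subsingleton C := Monoid.exp_eq_one_iff.mp h
      rw [Nat.card_unique] at hC4
      norm_num at hC4
    · exact h
  have : IsKleinFour C := ⟨hC4, hex⟩
  have hcm : ∀ z ∈ C, ∀ g : R, g * z = z * g := fun z hz g => Subgroup.mem_center_iff.mp (hC hz) g
  have hcom : ∀ x y : R, ⁅x, y⁆ ∈ C := by
    intro x y
    rw [← QuotientGroup.eq_one_iff (N := C), ← QuotientGroup.mk'_apply, map_commutatorElement,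
      commutatorElement_eq_one_iff_mul_comm]
    have h2 : ∀ v : R ⧸ C, v * v = 1 := by
      intro v
      obtain ⟨g, rfl⟩ := QuotientGroup.mk_surjective v
      rw [← QuotientGroup.mk_mul, QuotientGroup.eq_one_iff, ← pow_two]
      exact hsq g
    have hinv : ∀ v : R ⧸ C, v⁻¹ = v := fun v => inv_eq_of_mul_eq_one_right (h2 v)
    calc (QuotientGroup.mk' C x) * (QuotientGroup.mk' C y)
        = ((QuotientGroup.mk' C x) * (QuotientGroup.mk' C y))⁻¹ := (hinv _).symm
      _ = (QuotientGroup.mk' C y) * (QuotientGroup.mk' C x) := by rw [mul_inv_rev, hinv, hinv]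
  have hmul : ∀ x y : R, (x * y) ^ 2 = x ^ 2 * ⁅x⁻¹, y⁆ * y ^ 2 := by
    intro x y
    simp only [pow_two, commutatorElement_def]
    group
  let q : R ⧸ C → C := Quotient.lift (fun x => (⟨x ^ 2, hsq x⟩ : C)) (fun x y h => by
    apply Subtype.ext
    have hm := QuotientGroup.leftRel_apply.mp h
    obtain ⟨z, hz, rfl⟩ : ∃ z ∈ C, y = x * z := ⟨x⁻¹ * y, hm, by group⟩
    show x ^ 2 = (x * z) ^ 2
    rw [(show Commute x z from hcm z hz x).mul_pow, hCe z hz, mul_one])
  have hqm : ∀ x : R, ((q x : C) : R) = x ^ 2 := fun x => rfl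
  have : Nontrivial (R ⧸ C) := QuotientGroup.nontrivial_iff.mpr htop
  obtain ⟨v, hv, hv1⟩ := exists_zero (V := R ⧸ C) (Z := C) (fun v => by
    obtain ⟨g, rfl⟩ := QuotientGroup.mk_surjective v
    rw [← QuotientGroup.mk_mul, QuotientGroup.eq_one_iff, ← pow_two]
    exact hsq g) q (Subtype.ext (by
      show (1 : R) ^ 2 = 1
      exact one_pow 2)) (by
    intro a b c
    obtain ⟨x, rfl⟩ := QuotientGroup.mk_surjective a
    obtain ⟨y, rfl⟩ := QuotientGroup.mk_surjective b
    obtain ⟨u, rfl⟩ := QuotientGroup.mk_surjective c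
    apply Subtype.ext
    simp only [Subgroup.coe_mul, ← QuotientGroup.mk_mul, hqm]
    set β : R → R → R := fun g h => ⁅g⁻¹, h⁆ with hβ
    have hb : ∀ g h : R, β g h ∈ C := fun g h => hcom _ _
    have hβmul : β (x * y) u = β x u * β y u := by
      simp only [hβ, mul_inv_rev]
      have e : ⁅y⁻¹ * x⁻¹, u⁆ = (y⁻¹ * ⁅x⁻¹, u⁆ * y) * ⁅y⁻¹, u⁆ := by
        simp only [commutatorElement_def]; group
      rw [e, hcm _ (hcom x⁻¹ u) y⁻¹, inv_mul_cancel_right]
    have hsimp : ∀ g h : R, (g * h) ^ 2 * g ^ 2 * h ^ 2 = β g h := by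
      intro g h
      have hsqq : ∀ z ∈ C, z * z = 1 := fun z hz => by rw [← pow_two]; exact hCe z hz
      rw [hmul]
      show g ^ 2 * β g h * h ^ 2 * g ^ 2 * h ^ 2 = β g h
      generalize hB : β g h = B
      have hBC : B ∈ C := hB ▸ hb g h
      generalize hA : g ^ 2 = A
      have hAC : A ∈ C := hA ▸ hsq g
      generalize hD : h ^ 2 = D
      have hDC : D ∈ C := hD ▸ hsq h
      calc A * B * D * A * D = A * B * (D * A) * D := by group
        _ = A * (B * A) * (D * D) := by rw [hcm A hAC D]; group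
        _ = (A * A) * B * (D * D) := by rw [hcm A hAC B]; group
        _ = B := by rw [hsqq A hAC, hsqq D hDC, one_mul, mul_one]
    rw [hsimp (x * y) u, hsimp x u, hsimp y u, hβmul]) (by rwa [← Subgroup.index_eq_card])
  obtain ⟨x, rfl⟩ := QuotientGroup.mk_surjective v
  exact ⟨x, fun h => hv ((QuotientGroup.eq_one_iff x).mpr h), congrArg Subtype.val hv1⟩

end CfsgLib.MinimalAction
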