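import Cfsg.Agent.Lib.Zsigmondy.MinimalAction
import Cfsg.Agent.Lib.Zsigmondy.QuadCount

/-!
Operator groups on 2-groups of rank two.
-/

set_option autoImplicit false

namespace CfsgLib.MinimalAction

open Cfsg

theorem closure_pair_elementary {R : Type*} [Group R] {p : ℕ} (C : Subgroup R)
    (hC : Cfsg.IsElementaryAbelian p C) {x : R} (hx : x ^ p = 1)
    (hcomm : ∀ c ∈ C, c * x = x * c) :
    Cfsg.IsElementaryAbelian p (C ⊔ Subgroup.zpowers x) := by
  have hcc : ∀ a ∈ (C : Set R) ∪ {x}, ∀ b ∈ (C : Set R) ∪ {x}, a * b = b * a := by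
    rintro a (ha | rfl) b (hb | rfl)
    · exact congrArg Subtype.val (hC.1.is_comm.comm ⟨a, ha⟩ ⟨b, hb⟩)
    · exact hcomm a ha
    · exact (hcomm b hb).symm
    · rfl
  have heq : C ⊔ Subgroup.zpowers x = Subgroup.closure ((C : Set R) ∪ {x}) := by
    rw [Subgroup.closure_union, Subgroup.closure_eq, Subgroup.zpowers_eq_closure]
  rw [heq]
  have hcomm' := Subgroup.isMulCommutative_closure hcc
  refine ⟨hcomm', fun a ha => ?_⟩
  induction ha using Subgroup.closure_induction with
  | mem a ha =>
    rcases ha with ha | rfl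
    · exact hC.2 a ha
    · exact hx
  | one => exact one_pow p
  | mul a b ha hb iha ihb =>
    have : Commute a b := congrArg Subtype.val (hcomm'.is_comm.comm ⟨a, ha⟩ ⟨b, hb⟩)
    rw [this.mul_pow, iha, ihb, one_mul]
  | inv a _ iha => rw [inv_pow, iha, inv_one]

/-- No special group of rank two with centre of order four has quotient order `1` modulo `9`. -/
theorem false_of_special {R : Type*} [Group R] [Finite R] (hR : Cfsg.IsSpecial 2 R)
    (hC : Nat.card (Subgroup.center R) = 4) (htop : Subgroup.center R ≠ ⊤)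
    (h9 : 9 ∣ (Subgroup.center R).index - 1)
    (hrank : ∀ V : Subgroup R, Cfsg.IsElementaryAbelian 2 V → Nat.card V ≤ 4) : False := by
  have : Fact (Nat.Prime 2) := ⟨Nat.prime_two⟩
  have hel := PGroups.IsSpecial.center_elementary hR
  obtain ⟨x, hxC, hx2⟩ := exists_sq_eq_one (Subgroup.center R) le_rfl hC hel.2
    (fun x => PGroups.IsSpecial.pow_mem_center hR x) h9 htop
  have hV := closure_pair_elementary _ hel hx2 fun c hc => (Subgroup.mem_center_iff.mp hc x).symm
  have hlt : Subgroup.center R < Subgroup.center R ⊔ Subgroup.zpowers x :=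
    lt_of_le_of_ne le_sup_left fun he => hxC (he ▸ Subgroup.mem_sup_right (Subgroup.mem_zpowers x))
  have hle := hrank _ hV
  exact hlt.ne (Subgroup.eq_of_le_of_card_ge hlt.le (by rw [hC]; exact hle))

/-- The complement of the centre has `|Z| (index - 1)` elements. -/
theorem card_not_mem {R : Type*} [Group R] [Finite R] (C : Subgroup R) :
    Nat.card {x : R // x ∉ C} = Nat.card C * (C.index - 1) := by
  classical
  have : Fintype R := Fintype.ofFinite R
  rw [Nat.card_eq_fintype_card, Fintype.card_subtype_compl, ← Nat.card_eq_fintype_card,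
    ← Nat.card_eq_fintype_card, Nat.mul_sub, mul_one, C.card_mul_index]

/-- The centre of a nontrivial special group mapped into the ambient group. -/
theorem center_map_le_centralizer {X : Type*} [Group X] (R : Subgroup X) :
    (Subgroup.center R).map R.subtype ≤ Subgroup.centralizer (R : Set X) := by
  rintro _ ⟨z, hz, rfl⟩
  rw [Subgroup.mem_centralizer_iff]
  exact fun r hr => congrArg Subtype.val (Subgroup.mem_center_iff.mp hz ⟨r, hr⟩)

end CfsgLib.MinimalAction
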